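import Mathlib
import Cfsg.Agent.Lib.Helper73.HA.Defs
import Cfsg.Agent.Lib.Helper73.HT.Main4

set_option autoImplicit false

/-! Package CONJA of project HA: conjugacy of the Hall subgroups of `Alt(Ω)` from Theorem A,
conjugacy in `Sym(Ω)`, Sylow conjugacy, the bridge lemma and the odd case. -/

namespace Cfsg.Agent.Lib.Helper61.HA

open Equiv
open Cfsg.Agent.Lib.Helper73.HA

universe u

theorem conjA_of (hA : ThmAll.{u}) (hCS : ConjS.{u}) (hSyl : LemSylConj.{u})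
    (hB : LemBridge.{u}) (hO : LemOdd.{u}) : ConjA.{u} := by
  intro Ω _ _ π K₁ K₂ h1 h2
  by_cases hone : ∀ r s : ℕ, r.Prime → s.Prime → r ∈ π → s ∈ π →
      r ∣ Nat.card ↥(alternatingGroup Ω) → s ∣ Nat.card ↥(alternatingGroup Ω) → r = s
  · exact hSyl ↥(alternatingGroup Ω) π K₁ K₂ h1 h2 hone
  simp only [not_forall] at hone
  obtain ⟨r, s, hr, hs, hrπ, hsπ, hrd, hsd, hrs⟩ := hone
  have hle : ∀ q : ℕ, q.Prime → q ∣ Nat.card ↥(alternatingGroup Ω) → q ≤ Fintype.card Ω := by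
    intro q hq hd
    have h3 : q ∣ Nat.card (Perm Ω) := hd.trans (Subgroup.card_subgroup_dvd_card _)
    rw [Nat.card_eq_fintype_card, Fintype.card_perm] at h3
    exact hq.dvd_factorial.mp h3
  have hrn := hle r hr hrd
  have hsn := hle s hs hsd
  have hr2 := hr.two_le
  have hs2 := hs.two_le
  have hK1 := (hB (Perm Ω) π (alternatingGroup Ω) K₁).mp h1
  have hK2 := (hB (Perm Ω) π (alternatingGroup Ω) K₂).mp h2
  have h2π : 2 ∈ π := by
    by_contra h2n
    have hH := hO Ω π _ hK1 (Or.inl h2n)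
    have hgood := Cfsg.Agent.Lib.Helper73.HT.hall_good (Fintype.card Ω) Ω π _ rfl hH
    rcases hgood with hg | hg | hg | hg
    · exact hrs (hg r s hr hs hrπ hsπ hrn hsn)
    · exact h2n (hg 2 Nat.prime_two (by omega))
    · have h3 := hg.2 2 Nat.prime_two (by omega)
      have h4 : ¬ 2 < Fintype.card Ω := fun h => h2n (h3.mpr h)
      exact hrs (by omega)
    · have h3 := hg.2 2 Nat.prime_two (by omega)
      exact h2n (h3.mpr (Or.inl rfl))
  have hnt : Nontrivial Ω := by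
    apply Fintype.one_lt_card_iff_nontrivial.mp
    omega
  obtain ⟨M₁, hM₁, hM₁K⟩ := hA Ω π _ hK1
  obtain ⟨M₂, hM₂, hM₂K⟩ := hA Ω π _ hK2
  obtain ⟨σ, hσ⟩ := hCS Ω π M₁ M₂ hM₁ hM₂
  have hnot : ¬ M₁ ≤ alternatingGroup Ω := by
    intro h
    have h3 : (alternatingGroup Ω).index ∣ M₁.index := Subgroup.index_dvd_of_le h
    rw [alternatingGroup.index_eq_two] at h3
    exact hM₁.2 2 Nat.prime_two h2π h3
  obtain ⟨m, hmM, hmA⟩ := SetLike.not_le_iff_exists.mp hnot
  have hg : ∃ g : Perm Ω, g ∈ alternatingGroup Ω ∧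
      M₂ = M₁.map (MulAut.conj g).toMonoidHom := by
    by_cases hσA : σ ∈ alternatingGroup Ω
    · exact ⟨σ, hσA, hσ⟩
    · refine ⟨σ * m, ?_, ?_⟩
      · rw [Equiv.Perm.mem_alternatingGroup] at hσA hmA ⊢
        rw [map_mul]
        rcases Int.units_eq_one_or (Perm.sign σ) with h | h
        · exact absurd h hσA
        · rcases Int.units_eq_one_or (Perm.sign m) with h' | h'
          · exact absurd h' hmA
          · rw [h, h']; rfl
      · rw [hσ]
        ext x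
        simp only [Subgroup.mem_map, MulEquiv.coe_toMonoidHom, MulAut.conj_apply]
        constructor
        · rintro ⟨y, hy, rfl⟩
          refine ⟨m⁻¹ * y * m, M₁.mul_mem (M₁.mul_mem (M₁.inv_mem hmM) hy) hmM, ?_⟩
          group
        · rintro ⟨y, hy, rfl⟩
          refine ⟨m * y * m⁻¹, M₁.mul_mem (M₁.mul_mem hmM hy) (M₁.inv_mem hmM), ?_⟩
          group
  obtain ⟨g, hgA, hgM⟩ := hg
  have e1 : ∀ y : ↥(alternatingGroup Ω), y ∈ K₁ ↔ (y : Perm Ω) ∈ M₁ := by
    intro y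
    constructor
    · intro hy
      have h3 : (y : Perm Ω) ∈ K₁.map (alternatingGroup Ω).subtype := ⟨y, hy, rfl⟩
      rw [← hM₁K] at h3
      exact h3.1
    · intro hy
      have h3 : (y : Perm Ω) ∈ M₁ ⊓ alternatingGroup Ω := ⟨hy, y.2⟩
      rw [hM₁K] at h3
      obtain ⟨z, hz, hzy⟩ := h3
      have h4 : z = y := Subtype.ext hzy
      rwa [← h4]
  have e2 : ∀ y : ↥(alternatingGroup Ω), y ∈ K₂ ↔ (y : Perm Ω) ∈ M₂ := by
    intro y
    constructor
    · intro hy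
      have h3 : (y : Perm Ω) ∈ K₂.map (alternatingGroup Ω).subtype := ⟨y, hy, rfl⟩
      rw [← hM₂K] at h3
      exact h3.1
    · intro hy
      have h3 : (y : Perm Ω) ∈ M₂ ⊓ alternatingGroup Ω := ⟨hy, y.2⟩
      rw [hM₂K] at h3
      obtain ⟨z, hz, hzy⟩ := h3
      have h4 : z = y := Subtype.ext hzy
      rwa [← h4]
  refine ⟨⟨g, hgA⟩, ?_⟩
  ext x
  rw [e2, hgM]
  simp only [Subgroup.mem_map, MulEquiv.coe_toMonoidHom, MulAut.conj_apply]
  constructor
  · rintro ⟨y, hy, hyx⟩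
    have hyA : y ∈ alternatingGroup Ω := by
      have h3 : y = g⁻¹ * (x : Perm Ω) * g := by rw [← hyx]; group
      rw [h3]
      exact (alternatingGroup Ω).mul_mem
        ((alternatingGroup Ω).mul_mem ((alternatingGroup Ω).inv_mem hgA) x.2) hgA
    refine ⟨⟨y, hyA⟩, (e1 ⟨y, hyA⟩).mpr hy, ?_⟩
    exact Subtype.ext hyx
  · rintro ⟨y, hy, rfl⟩
    exact ⟨(y : Perm Ω), (e1 y).mp hy, rfl⟩

end Cfsg.Agent.Lib.Helper61.HA
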