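import Mathlib
import Cfsg.Agent.Lib.Helper73.HA.Defs

set_option autoImplicit false

/-! Package 1Bb of project HA: if a full cycle of prime length generates a subgroup
normalized by `K`, a point stabilizer of `K` has at most one involution. -/

namespace Cfsg.Agent.Lib.Helper61.HA

open Equiv

universe u

theorem fix_commute_eq_one {Ω : Type u} [Fintype Ω] [DecidableEq Ω] (c g : Perm Ω)
    (hcyc : c.IsCycle) (hne : ∀ x, c x ≠ x) (hcomm : Commute g c) (ω : Ω) (hω : g ω = ω) :
    g = 1 := by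
  ext x
  obtain ⟨i, hi⟩ := hcyc.exists_zpow_eq (hne ω) (hne x)
  have h1 : Commute g (c ^ i) := hcomm.zpow_right i
  have h2 : g ((c ^ i) ω) = (c ^ i) (g ω) := by
    have := congrArg (fun f : Perm Ω => f ω) h1.eq
    simpa [Perm.mul_apply] using this
  rw [Perm.one_apply, ← hi, h2, hω]

theorem invol_inverts {Ω : Type u} [Fintype Ω] [DecidableEq Ω] (c s : Perm Ω)
    (hp : (Fintype.card Ω).Prime) (hord : orderOf c = Fintype.card Ω)
    (hcyc : c.IsCycle) (hne : ∀ x, c x ≠ x)
    (hs : s * c * s⁻¹ ∈ Subgroup.zpowers c) (ω : Ω) (hω : s ω = ω) (hss : s * s = 1)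
    (hs1 : s ≠ 1) : s * c * s⁻¹ = c⁻¹ := by
  obtain ⟨k, hk⟩ := Subgroup.mem_zpowers_iff.mp hs
  have hsinv : s⁻¹ = s := inv_eq_of_mul_eq_one_left hss
  have h1 : c = c ^ (k * k) := by
    have h0 : s * (s * c * s⁻¹) * s⁻¹ = c := by
      rw [hsinv]
      calc s * (s * c * s) * s = (s * s) * c * (s * s) := by group
        _ = c := by rw [hss]; simp
    calc c = s * (s * c * s⁻¹) * s⁻¹ := h0.symm
      _ = s * c ^ k * s⁻¹ := by rw [hk]
      _ = (s * c * s⁻¹) ^ k := (conj_zpow).symm
      _ = (c ^ k) ^ k := by rw [hk]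
      _ = c ^ (k * k) := (zpow_mul c k k).symm
  have h2 : c ^ (k * k - 1) = 1 := by
    rw [zpow_sub, zpow_one, ← h1]; simp
  have h3 : ((Fintype.card Ω : ℕ) : ℤ) ∣ k * k - 1 := by
    rw [← hord]; exact orderOf_dvd_iff_zpow_eq_one.mpr h2
  have h4 : k * k - 1 = (k - 1) * (k + 1) := by ring
  rw [h4] at h3
  have hpi : Prime ((Fintype.card Ω : ℕ) : ℤ) := Nat.prime_iff_prime_int.mp hp
  rcases hpi.dvd_or_dvd h3 with h5 | h5
  · exfalso
    have h6 : c ^ (k - 1) = 1 := by
      apply orderOf_dvd_iff_zpow_eq_one.mp; rw [hord]; exact h5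
    have h7 : c ^ k = c := by
      have h70 : c ^ k = c ^ (k - 1) * c := by
        rw [← zpow_add_one]; congr 1; ring
      rw [h70, h6, one_mul]
    have h8 : s * c * s⁻¹ = c := by rw [← hk, h7]
    have h9 : Commute s c := by
      have h90 : s * c = c * s := by
        calc s * c = (s * c * s⁻¹) * s := by group
          _ = c * s := by rw [h8]
      exact h90
    exact hs1 (fix_commute_eq_one c s hcyc hne h9 ω hω)
  · have h6 : c ^ (k + 1) = 1 := by
      apply orderOf_dvd_iff_zpow_eq_one.mp; rw [hord]; exact h5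
    rw [← hk]
    have h7 : c ^ k * c = 1 := by rw [← zpow_add_one]; exact h6
    exact eq_inv_of_mul_eq_one_left h7

theorem lem1Bb : Cfsg.Agent.Lib.Helper73.HA.Lem1Bb.{u} := by
  intro Ω _ _ K c hp hcK hord hnorm s t ω hsK htK hsω htω hss htt hs1 ht1
  have hcyc : c.IsCycle := by
    apply Equiv.Perm.isCycle_of_prime_order (by rw [hord]; exact hp)
    rw [hord]
    have h1 := c.support.card_le_univ
    have h2 := hp.pos
    omega
  have hsupp : c.support = Finset.univ := by
    apply Finset.eq_univ_of_card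
    rw [← hcyc.orderOf, hord]
  have hne : ∀ x, c x ≠ x := fun x => Equiv.Perm.mem_support.mp (hsupp ▸ Finset.mem_univ x)
  have h1 := invol_inverts c s hp hord hcyc hne (hnorm s hsK) ω hsω hss hs1
  have h2 := invol_inverts c t hp hord hcyc hne (hnorm t htK) ω htω htt ht1
  have h3 : Commute (s * t) c := by
    have h30 : (s * t) * c * (s * t)⁻¹ = c := by
      calc (s * t) * c * (s * t)⁻¹ = s * (t * c * t⁻¹) * s⁻¹ := by group
        _ = s * c⁻¹ * s⁻¹ := by rw [h2]
        _ = (s * c * s⁻¹)⁻¹ := by group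
        _ = c := by rw [h1, inv_inv]
    have h : (s * t) * c = c * (s * t) := by
      calc (s * t) * c = ((s * t) * c * (s * t)⁻¹) * (s * t) := by group
        _ = c * (s * t) := by rw [h30]
    exact h
  have h4 : s * t = 1 :=
    fix_commute_eq_one c (s * t) hcyc hne h3 ω (by rw [Perm.mul_apply, htω, hsω])
  calc s = s * (t * t) := by rw [htt, mul_one]
    _ = (s * t) * t := by group
    _ = t := by rw [h4, one_mul]

end Cfsg.Agent.Lib.Helper61.HA
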