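import Mathlib
import Cfsg.Agent.Lib.Helper73.HA.Defs2

set_option autoImplicit false

/-! Package D-HALL of project HA: if the maximal `π`-subgroups of a finite group are
conjugate, there is a Hall `π`-subgroup and every `π`-subgroup lies in a conjugate of it. -/

namespace Cfsg.Agent.Lib.Helper61.HA

universe u

theorem exists_le_maximal_pi {G : Type u} [Group G] [Finite G] (π : Set ℕ) (H : Subgroup G)
    (hH : Cfsg.IsPiSubgroup π H) :
    ∃ L : Subgroup G, H ≤ L ∧ Maximal (Cfsg.IsPiSubgroup π) L :=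
  Finite.exists_le_maximal hH

theorem lemDHall : Cfsg.Agent.Lib.Helper73.HA.LemDHall.{u} := by
  intro G _ _ π hD
  have hbot : Cfsg.IsPiSubgroup π (⊥ : Subgroup G) := by
    intro p hp hdvd
    rw [Subgroup.card_bot] at hdvd
    exact absurd (Nat.dvd_one.mp hdvd) hp.ne_one
  obtain ⟨K, -, hK⟩ := exists_le_maximal_pi π ⊥ hbot
  refine ⟨K, ⟨hK.prop, ?_⟩, ?_⟩
  · intro p hp hpπ hdvd
    have hfact : Fact p.Prime := ⟨hp⟩
    obtain ⟨P⟩ : Nonempty (Sylow p G) := inferInstance
    have hP : Cfsg.IsPiSubgroup π (P : Subgroup G) := by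
      intro q hq hqd
      obtain ⟨k, hk⟩ := IsPGroup.iff_card.mp P.isPGroup'
      rw [hk] at hqd
      have h3 : q = p := (Nat.prime_dvd_prime_iff_eq hq hp).mp (hq.dvd_of_dvd_pow hqd)
      rw [h3]; exact hpπ
    obtain ⟨L, hPL, hL⟩ := exists_le_maximal_pi π (P : Subgroup G) hP
    obtain ⟨g, hg⟩ := hD K L hK hL
    have h1 : L.index ∣ (P : Subgroup G).index := Subgroup.index_dvd_of_le hPL
    have h2 : L.index = K.index := by
      rw [hg]
      exact Subgroup.index_map_of_bijective (MulAut.conj g).bijective K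
    rw [h2] at h1
    exact P.not_dvd_index (hdvd.trans h1)
  · intro H hH
    obtain ⟨L, hHL, hL⟩ := exists_le_maximal_pi π H hH
    obtain ⟨g, hg⟩ := hD K L hK hL
    exact ⟨g, hg ▸ hHL⟩

end Cfsg.Agent.Lib.Helper61.HA
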